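import Cfsg.Agent.Lib.Helper25.SZAmbient

/-!
# StVal farm (helper36, S2312), piece B
-/

set_option autoImplicit false

namespace Cfsg.Agent.Lib.Helper75.StVal

open Cfsg

section

variable {M : Type*} [Group M] {p : ℕ}

/-- a `p`-regular cyclic group meets a `p`-group trivially. -/
lemma eq_one_of_mem_zpowers_of_mem (hp : p.Prime) (R : Subgroup M) (hR : IsPGroup p R) {x y : M}
    (hx : ¬ p ∣ orderOf x) (hy : y ∈ Subgroup.zpowers x) (hyR : y ∈ R) : y = 1 := by
  obtain ⟨n, hn⟩ := hR ⟨y, hyR⟩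
  have h1 : y ^ p ^ n = 1 := by
    have := congrArg Subtype.val hn
    simpa using this
  have h2 : orderOf y ∣ p ^ n := orderOf_dvd_of_pow_eq_one h1
  have h3 : orderOf y ∣ orderOf x := orderOf_dvd_of_mem_zpowers hy
  have hcop : Nat.Coprime (p ^ n) (orderOf x) :=
    Nat.Coprime.pow_left _ ((Nat.Prime.coprime_iff_not_dvd hp).2 hx)
  have h4 : orderOf y ∣ 1 := by
    rw [← hcop.gcd_eq_one]
    exact Nat.dvd_gcd h2 h3
  exact orderOf_eq_one_iff.1 (Nat.dvd_one.1 h4)

lemma orderOf_dvd_of_mk_eq (hp : p.Prime) (R : Subgroup M) [R.Normal] (hR : IsPGroup p R) {x y : M}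
    (hx : ¬ p ∣ orderOf x) (h : (QuotientGroup.mk' R) x = (QuotientGroup.mk' R) y) :
    orderOf x ∣ orderOf y := by
  apply orderOf_dvd_of_pow_eq_one
  apply eq_one_of_mem_zpowers_of_mem hp R hR hx (Subgroup.npow_mem_zpowers x _)
  rw [← QuotientGroup.ker_mk' R, MonoidHom.mem_ker, map_pow, h, ← map_pow, pow_orderOf_eq_one,
    map_one]

end

/-- B -/
theorem exists_conj_of_regular {M : Type*} [Group M] [Finite M] {p : ℕ} (hp : p.Prime) (R : Subgroup M)
    [R.Normal] (hR : IsPGroup p R) (s : M) (hs : ¬ p ∣ orderOf s) (r : M) (hr : r ∈ R)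
    (hrs : ¬ p ∣ orderOf (r * s)) : ∃ w ∈ R, r * s = w * s * w⁻¹ := by
  have : Fact p.Prime := ⟨hp⟩
  have hmk : (QuotientGroup.mk' R) (r * s) = (QuotientGroup.mk' R) s := by
    rw [map_mul, (QuotientGroup.eq_one_iff r).2 hr |> fun h => (h : (QuotientGroup.mk' R) r = 1),
      one_mul]
  have hord : orderOf (r * s) = orderOf s :=
    Nat.dvd_antisymm (orderOf_dvd_of_mk_eq hp R hR hrs hmk) (orderOf_dvd_of_mk_eq hp R hR hs hmk.symm)
  have hsolv : Group.IsSolvable R := by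
    have := hR.isNilpotent
    infer_instance
  obtain ⟨n, hn⟩ := (IsPGroup.iff_card (p := p) (G := R)).1 hR
  obtain ⟨x, hxR, hx⟩ := Cfsg.Agent.Lib.Helper25.sz_conj_ambient R (Subgroup.zpowers s)
    (Subgroup.zpowers (r * s))
    (by rw [Subgroup.normalizer_eq_top]; exact le_top)
    (by
      rw [Subgroup.zpowers_le]
      exact Subgroup.mul_mem _ (Subgroup.mem_sup_left hr)
        (Subgroup.mem_sup_right (Subgroup.mem_zpowers s)))
    (by
      rw [hn, Nat.card_zpowers]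
      exact Nat.Coprime.pow_left _ ((Nat.Prime.coprime_iff_not_dvd hp).2 hs))
    (by rw [Nat.card_zpowers, Nat.card_zpowers, hord])
    (Or.inl hsolv)
  refine ⟨x, hxR, ?_⟩
  have h1 : x * s * x⁻¹ ∈ Subgroup.zpowers (r * s) := by
    rw [hx]
    exact ⟨s, Subgroup.mem_zpowers s, rfl⟩
  -- both lie in `zpowers (r * s)` and have the same image modulo `R`
  have h2 : (r * s) * (x * s * x⁻¹)⁻¹ ∈ Subgroup.zpowers (r * s) :=
    Subgroup.mul_mem _ (Subgroup.mem_zpowers _) (Subgroup.inv_mem _ h1)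
  have h3 : (r * s) * (x * s * x⁻¹)⁻¹ ∈ R := by
    have hx1 : (QuotientGroup.mk' R) x = 1 := (QuotientGroup.eq_one_iff x).2 hxR
    rw [← QuotientGroup.ker_mk' R, MonoidHom.mem_ker, map_mul, hmk, map_inv, map_mul, map_mul,
      map_inv, hx1]
    simp
  have h4 := eq_one_of_mem_zpowers_of_mem hp R hR hrs h2 h3
  exact mul_inv_eq_one.1 h4

end Cfsg.Agent.Lib.Helper75.StVal
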